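import Cfsg.Agent.H35.T1690.PTab0
import Cfsg.Agent.H35.T1690.PTab1
import Cfsg.Agent.H35.T1690.PTab2
import Cfsg.Agent.H35.T1690.PTab3
import Cfsg.Agent.H35.T1690.PTab4

set_option autoImplicit false
set_option linter.all false

namespace Cfsg.Agent.H35

noncomputable def t1690_prow_t : ℕ → ℕ := (nd (nat_lit 72) (nd (nat_lit 32) (nd (nat_lit 16) (nd (nat_lit 8) t1690_prow_t_c0 t1690_prow_t_c1) (nd (nat_lit 24) t1690_prow_t_c2 t1690_prow_t_c3)) (nd (nat_lit 48) (nd (nat_lit 40) t1690_prow_t_c4 t1690_prow_t_c5) (nd (nat_lit 56) t1690_prow_t_c6 (nd (nat_lit 64) t1690_prow_t_c7 t1690_prow_t_c8)))) (nd (nat_lit 112) (nd (nat_lit 88) (nd (nat_lit 80) t1690_prow_t_c9 t1690_prow_t_c10) (nd (nat_lit 96) t1690_prow_t_c11 (nd (nat_lit 104) t1690_prow_t_c12 t1690_prow_t_c13))) (nd (nat_lit 128) (nd (nat_lit 120) t1690_prow_t_c14 t1690_prow_t_c15) (nd (nat_lit 136) t1690_prow_t_c16 (nd (nat_lit 144) t1690_prow_t_c17 t1690_prow_t_c18)))))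
noncomputable def t1690_prow : ℕ → ℕ := fun p => Nat.land (Nat.shiftRight (t1690_prow_t (Nat.shiftRight p (nat_lit 11))) (Nat.mul (nat_lit 336) (Nat.land p (nat_lit 2047)))) (nat_lit 139984046386112763159840142535527767382602843577165595931249318810236991948760059086304843329475444735)

noncomputable def t1690_pd : W.PData Cfsg.Spor.Fi24.Gen := ⟨t1690_prow, 306936, fi24_gi, fi24_gens, 12⟩
def t1690_sw : List (List Cfsg.Spor.Fi24.Gen) := [[.a], [.b], [.c], [.d], [.e], [.f], [.g], [.h], [.i], [.j], [.l]]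
theorem t1690_sw_def : t1690_sw = [[.a], [.b], [.c], [.d], [.e], [.f], [.g], [.h], [.i], [.j], [.l]] := rfl
noncomputable def t1690_pf (p : ℕ) : Bool := t1690_pd.ptOK fi24_prws fi24_pprels p

end Cfsg.Agent.H35
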